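import Mathlib
import Cfsg.Agent.Lib.Helper36.AltEven
import Cfsg.Agent.Lib.Helper59.OHyp.BlkDefs

/-!
# OHYP [EVENDIM]: an invariant nondegenerate subspace without fixed vectors has even dimension.

Route: `A(u, v) = B(u, x v) - B(x u, v)` is a nondegenerate alternating form on `U`.
-/

set_option autoImplicit false

namespace Cfsg.Agent.Lib.Helper96.OHyp

open Cfsg.Agent.Lib.Helper23.OHyp Cfsg.Agent.Lib.Helper59.OHyp
open Matrix

universe u

theorem pkgEvenDim : Cfsg.Agent.Lib.Helper59.OHyp.PkgEvenDim.{u} := by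
  intro F _ _ ι _ _ Q r x hstd U hInv hNd hNoFix
  classical
  have hbil := hstd.nondeg.polar_bilinear
  have hsymm : ∀ a b : ι → F, QuadraticMap.polar Q a b = QuadraticMap.polar Q b a :=
    fun a b => QuadraticMap.polar_comm Q a b
  have hiso : ∀ a b : ι → F,
      QuadraticMap.polar Q (x *ᵥ a) (x *ᵥ b) = QuadraticMap.polar Q a b := by
    intro a b
    simp only [QuadraticMap.polar]
    rw [← Matrix.mulVec_add, hstd.isom, hstd.isom, hstd.isom]
  have hxU : ∀ v ∈ U, x *ᵥ v ∈ U := by
    intro v hv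
    apply hInv
    exact ⟨v, hv, by simp [Matrix.toLin'_apply]⟩
  have hxkU : ∀ (k : ℕ), ∀ v ∈ U, (x ^ k) *ᵥ v ∈ U := by
    intro k
    induction k with
    | zero => intro v hv; simpa using hv
    | succ k ih =>
      intro v hv
      rw [pow_succ', ← Matrix.mulVec_mulVec]
      exact hxU _ (ih v hv)
  -- the alternating form
  let A : LinearMap.BilinForm F U := LinearMap.mk₂ F
    (fun u v : U => QuadraticMap.polar Q (u : ι → F) (x *ᵥ (v : ι → F))
      - QuadraticMap.polar Q (x *ᵥ (u : ι → F)) (v : ι → F))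
    (by
      intro a b c
      simp only [Submodule.coe_add, Matrix.mulVec_add, hbil.add_left]
      ring)
    (by
      intro c a b
      simp only [Submodule.coe_smul, Matrix.mulVec_smul, hbil.smul_left, smul_eq_mul]
      ring)
    (by
      intro a b c
      simp only [Submodule.coe_add, Matrix.mulVec_add, hbil.add_right]
      ring)
    (by
      intro c a b
      simp only [Submodule.coe_smul, Matrix.mulVec_smul, hbil.smul_right, smul_eq_mul]
      ring)
  have hAapp : ∀ u v : U, A u v = QuadraticMap.polar Q (u : ι → F) (x *ᵥ (v : ι → F))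
      - QuadraticMap.polar Q (x *ᵥ (u : ι → F)) (v : ι → F) := fun u v => rfl
  have hA : A.IsAlt := by
    intro u
    rw [hAapp, hsymm (x *ᵥ (u : ι → F)) (u : ι → F), sub_self]
  obtain ⟨k, hk⟩ := Cfsg.Agent.Lib.Helper36.alt_finrank_aux F (Module.finrank F U) U A hA rfl
  have hodd : Odd r := hstd.prime.odd_of_ne_two hstd.ne_two
  have hr1 : r = (r - 1) + 1 := by have := hstd.prime.pos; omega
  have hker : LinearMap.ker A = ⊥ := by
    rw [LinearMap.ker_eq_bot']
    intro v hv
    have hv' : ∀ u : U, QuadraticMap.polar Q (v : ι → F) (x *ᵥ (u : ι → F))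
        = QuadraticMap.polar Q (x *ᵥ (v : ι → F)) (u : ι → F) := by
      intro u
      have h1 : A v u = 0 := by rw [hv]; rfl
      rw [hAapp] at h1
      exact sub_eq_zero.mp h1
    -- x² v - v is orthogonal to U
    have horth : ∀ w ∈ U, QuadraticMap.polar Q (x *ᵥ (x *ᵥ (v : ι → F)) - (v : ι → F)) w = 0 := by
      intro w hw
      have hu : (x ^ (r - 1)) *ᵥ w ∈ U := hxkU _ w hw
      have hxu : x *ᵥ ((x ^ (r - 1)) *ᵥ w) = w := by
        rw [Matrix.mulVec_mulVec, ← pow_succ', ← hr1, hstd.pow, Matrix.one_mulVec]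
      have h2 := hv' ⟨_, hu⟩
      simp only at h2
      rw [hxu] at h2
      have h3 := hiso (x *ᵥ (v : ι → F)) ((x ^ (r - 1)) *ᵥ w)
      rw [hxu] at h3
      have h4 : x *ᵥ (x *ᵥ (v : ι → F)) - (v : ι → F)
          = x *ᵥ (x *ᵥ (v : ι → F)) + (-1 : F) • (v : ι → F) := by
        rw [neg_one_smul, sub_eq_add_neg]
      rw [h4, hbil.add_left, hbil.smul_left, h3, ← h2]
      ring
    have hmem : x *ᵥ (x *ᵥ (v : ι → F)) - (v : ι → F) ∈ U :=
      U.sub_mem (hxU _ (hxU _ v.2)) v.2
    have hzero : x *ᵥ (x *ᵥ (v : ι → F)) - (v : ι → F) = 0 := by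
      by_contra hne
      obtain ⟨-, y, hy, hy'⟩ := hNd _ hmem hne
      exact hy' (horth y hy)
    have hx2 : x *ᵥ (x *ᵥ (v : ι → F)) = (v : ι → F) := sub_eq_zero.mp hzero
    have hx2k : ∀ m : ℕ, (x ^ (2 * m)) *ᵥ (v : ι → F) = (v : ι → F) := by
      intro m
      induction m with
      | zero => simp
      | succ m ih =>
        rw [show 2 * (m + 1) = 2 * m + 1 + 1 by ring, pow_succ, pow_succ, Matrix.mul_assoc,
          ← Matrix.mulVec_mulVec, ← Matrix.mulVec_mulVec, hx2, ih]
    obtain ⟨m, hm⟩ := hodd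
    have hfix : x *ᵥ (v : ι → F) = (v : ι → F) := by
      have h1 : (x ^ r) *ᵥ (v : ι → F) = (v : ι → F) := by rw [hstd.pow, Matrix.one_mulVec]
      rw [hm, pow_succ', ← Matrix.mulVec_mulVec, hx2k] at h1
      exact h1
    have := hNoFix _ v.2 hfix
    exact Subtype.ext this
  rw [hker, finrank_bot, zero_add] at hk
  exact ⟨k, by rw [hk]; ring⟩

end Cfsg.Agent.Lib.Helper96.OHyp
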